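import Cfsg.Agent.H754.NMapConc

/-!
# The invariant subsystem generated by the elements of order prime to `p` (helper754)
-/

set_option autoImplicit false

namespace Cfsg.Agent.H754

open Cfsg Cfsg.FusionSystem Cfsg.Agent.H752

variable {Ω : Type*} [Group Ω] {S T : Subgroup Ω}
variable {F : FusionSystem S} {I : FusionSystem T} {p : ℕ} {PP : Set (Subgroup Ω)}

theorem SubData.exists_sys [Finite S] [Fact p.Prime] (D : SubData F I p PP) (hS : IsPGroup p S)
    (hF : F.IsSaturated p) (hE : ExtOutside F T PP) :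
    ∃ E : FusionSystem T, E.IsSubsystemOf I ∧ E.IsInvariantIn F ∧
      (∀ P ∈ PP, ∀ α ∈ I.autGroup P, Nat.Coprime (orderOf α) p → α ∈ E.autGroup P) ∧
      (∀ P ∈ PP, E.autGroup P = AA F I p P) ∧ (∀ P ∈ PP, E.IsReceptive P) ∧
      (StarOutside E p PP → E.IsSaturated p) := by
  have h := D.nmap hS hF
  refine ⟨h.sys, h.sys_le_of fun P hP a ha => D.AA_le_I (D.le P hP) ha, h.isInvariantIn hS hF hE,
    fun P hP α hα hc => ?_, fun P hP => (h.aut_receptive hS hF P hP).1,
    fun P hP => (h.aut_receptive hS hF P hP).2, h.isSaturated hS hF⟩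
  rw [(h.aut_receptive hS hF P hP).1]
  exact Subgroup.subset_closure (Or.inl ⟨hα, hc⟩)

end Cfsg.Agent.H754
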